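import Cfsg.Agent.Cores.PCores
import Cfsg.Agent.Cores.Layer
import Mathlib.GroupTheory.NoncommCoprod
import Mathlib.GroupTheory.Sylow

/-!
Generic lemmas for the three-generator theorem: the projection `K·C(K) → K/Z(K)`, coprime action of
one element, and the list of facts needed about the simple groups which occur.
-/

set_option autoImplicit false
set_option linter.style.haveILetI false

open Cfsg

namespace CfsgLib.Powell

universe u

/-- What is needed about a simple group of order divisible by `r`. -/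
structure SimpleFacts (r : ℕ) (Q : Type u) [Group Q] : Prop where
  cyclic : ∀ P : Sylow r Q, IsCyclic P
  tame : ∀ (l : Q) (A : Subgroup Q), (∃ k : ℕ, l ^ r ^ k = 1) → ¬ r ∣ Nat.card A →
    (∀ a ∈ A, l * a * l⁻¹ ∈ A) → ∀ a ∈ A, l * a = a * l
  inner : ∀ φ : MulAut Q, φ ^ r = 1 → ∃ g : Q, φ = MulAut.conj g
  twoGen : ∃ a b : Q, Subgroup.closure ({a, b} : Set Q) = ⊤

variable {G : Type u} [Group G] {r : ℕ}

section proj

/-- `K × C(K) → G`. -/
def csHom (K : Subgroup G) : ↥K × ↥(Subgroup.centralizer (K : Set G)) →* G :=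
  MonoidHom.noncommCoprod K.subtype (Subgroup.centralizer (K : Set G)).subtype
    fun k c => Subgroup.mem_centralizer_iff.mp c.2 (k : G) k.2

/-- The subgroup `K·C(K)`. -/
def cs (K : Subgroup G) : Subgroup G := (csHom K).range

theorem mem_cs_iff {K : Subgroup G} {x : G} :
    x ∈ cs K ↔ ∃ k ∈ K, ∃ c ∈ Subgroup.centralizer (K : Set G), x = k * c := by
  constructor
  · rintro ⟨⟨k, c⟩, rfl⟩
    exact ⟨k, k.2, c, c.2, rfl⟩
  · rintro ⟨k, hk, c, hc, rfl⟩
    exact ⟨(⟨k, hk⟩, ⟨c, hc⟩), rfl⟩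

theorem le_cs (K : Subgroup G) : K ≤ cs K := fun k hk =>
  mem_cs_iff.mpr ⟨k, hk, 1, one_mem _, (mul_one k).symm⟩

theorem centralizer_le_cs (K : Subgroup G) : Subgroup.centralizer (K : Set G) ≤ cs K := fun c hc =>
  mem_cs_iff.mpr ⟨1, one_mem _, c, hc, (one_mul c).symm⟩

theorem ker_csHom_le (K : Subgroup G) : (csHom K).rangeRestrict.ker ≤
    ((QuotientGroup.mk' (Subgroup.center ↥K)).comp (MonoidHom.fst ↥K _)).ker := by
  rintro ⟨k, c⟩ hkc
  rw [MonoidHom.ker_rangeRestrict, MonoidHom.mem_ker] at hkc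
  rw [MonoidHom.mem_ker]
  refine (QuotientGroup.eq_one_iff k).mpr (Subgroup.mem_center_iff.mpr fun g => Subtype.ext ?_)
  have hk : (k : G) = (c : G)⁻¹ := eq_inv_of_mul_eq_one_left hkc
  show (g : G) * k = k * g
  rw [hk]
  exact Subgroup.mem_centralizer_iff.mp (inv_mem c.2) (g : G) g.2

/-- The projection `K·C(K) → K/Z(K)`. -/
noncomputable def proj (K : Subgroup G) : ↥(cs K) →* ↥K ⧸ Subgroup.center ↥K :=
  MonoidHom.liftOfSurjective (csHom K).rangeRestrict (csHom K).rangeRestrict_surjective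
    ⟨_, ker_csHom_le K⟩

theorem proj_apply {K : Subgroup G} {k c : G} (hk : k ∈ K)
    (hc : c ∈ Subgroup.centralizer (K : Set G)) (h : k * c ∈ cs K) :
    proj K ⟨k * c, h⟩ = QuotientGroup.mk ⟨k, hk⟩ := by
  have h1 := MonoidHom.liftOfRightInverse_comp_apply (csHom K).rangeRestrict
    (Function.surjInv (csHom K).rangeRestrict_surjective)
    (Function.rightInverse_surjInv (csHom K).rangeRestrict_surjective)
    ⟨_, ker_csHom_le K⟩ (⟨k, hk⟩, ⟨c, hc⟩)
  exact h1

theorem proj_of_mem {K : Subgroup G} {k : G} (hk : k ∈ K) :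
    proj K ⟨k, le_cs K hk⟩ = QuotientGroup.mk ⟨k, hk⟩ := by
  have h := proj_apply hk (one_mem (Subgroup.centralizer (K : Set G)))
    (by rw [mul_one]; exact le_cs K hk)
  simpa using h

theorem proj_surjective (K : Subgroup G) : Function.Surjective (proj K) := fun q => by
  obtain ⟨⟨k, hk⟩, rfl⟩ := QuotientGroup.mk_surjective q
  exact ⟨⟨k, le_cs K hk⟩, proj_of_mem hk⟩

theorem proj_eq_one_iff {K : Subgroup G} {x : G} (hx : x ∈ cs K) :
    proj K ⟨x, hx⟩ = 1 ↔ x ∈ Subgroup.centralizer (K : Set G) := by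
  obtain ⟨k, hk, c, hc, rfl⟩ := mem_cs_iff.mp hx
  rw [proj_apply hk hc hx, QuotientGroup.eq_one_iff, Subgroup.mem_center_iff]
  constructor
  · intro h
    refine mul_mem (Subgroup.mem_centralizer_iff.mpr fun g hg => ?_) hc
    exact congrArg Subtype.val (h ⟨g, hg⟩)
  · intro h g
    have hk' : k ∈ Subgroup.centralizer (K : Set G) := by
      simpa using mul_mem h (inv_mem hc)
    exact Subtype.ext (Subgroup.mem_centralizer_iff.mp hk' (g : G) g.2)

theorem proj_eq_iff {K : Subgroup G} {x y : G} (hx : x ∈ cs K) (hy : y ∈ cs K) :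
    proj K ⟨x, hx⟩ = proj K ⟨y, hy⟩ ↔ x⁻¹ * y ∈ Subgroup.centralizer (K : Set G) := by
  rw [← inv_mul_eq_one, ← map_inv, ← map_mul]
  exact proj_eq_one_iff (mul_mem (inv_mem hx) hy)

end proj

section coprime

theorem eq_one_of_pow_of_not_dvd [hr : Fact r.Prime] {A : Subgroup G} {c : G} {k : ℕ} (hc : c ∈ A)
    (hA : ¬ r ∣ Nat.card A) (hpow : c ^ r ^ k = 1) : c = 1 := by
  have h1 : orderOf c ∣ r ^ k := orderOf_dvd_of_pow_eq_one hpow
  have h2 : orderOf c ∣ Nat.card A := by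
    have := orderOf_dvd_natCard (⟨c, hc⟩ : A)
    rwa [Subgroup.orderOf_mk] at this
  have h3 : Nat.Coprime (r ^ k) (Nat.card A) :=
    Nat.Coprime.pow_left _ (hr.out.coprime_iff_not_dvd.mpr hA)
  exact orderOf_eq_one_iff.mp (Nat.eq_one_of_dvd_coprimes h3 h1 h2)

/-- If `[A, e]` is centralised by the `r`-element `e` and `A` is an `r'`-group, `e` centralises `A`. -/
theorem commute_of_commutator_fixed [Fact r.Prime] {A : Subgroup G} {e : G} {k : ℕ}
    (hA : ¬ r ∣ Nat.card A) (he : e ^ r ^ k = 1) {a : G} (ha : a ∈ A)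
    (hn : e * a * e⁻¹ ∈ A) (hfix : e * (e * a * e⁻¹ * a⁻¹) = (e * a * e⁻¹ * a⁻¹) * e) :
    e * a = a * e := by
  set c := e * a * e⁻¹ * a⁻¹ with hc
  have key : ∀ n : ℕ, e ^ n * a * (e ^ n)⁻¹ = c ^ n * a := by
    intro n
    induction n with
    | zero => simp
    | succ n ih =>
      have hcn : e * c ^ n = c ^ n * e := (Commute.pow_right hfix n).eq
      calc e ^ (n + 1) * a * (e ^ (n + 1))⁻¹ = e * (e ^ n * a * (e ^ n)⁻¹) * e⁻¹ := by
            rw [pow_succ']; group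
        _ = e * (c ^ n * a) * e⁻¹ := by rw [ih]
        _ = e * c ^ n * a * e⁻¹ := by group
        _ = c ^ n * e * a * e⁻¹ := by rw [hcn]
        _ = c ^ n * (e * a * e⁻¹ * a⁻¹) * a := by group
        _ = c ^ (n + 1) * a := by rw [← hc, pow_succ]
  have h1 := key (r ^ k)
  rw [he] at h1
  have hpow : c ^ r ^ k = 1 := by simpa using h1.symm
  have hc1 : c = 1 := eq_one_of_pow_of_not_dvd (mul_mem hn (inv_mem ha)) hA hpow
  rw [hc, mul_inv_eq_one] at hc1
  exact mul_inv_eq_iff_eq_mul.mp hc1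

theorem isPGroup_zpowers_of_pow [Fact r.Prime] {x : G} {k : ℕ} (hx : x ^ r ^ k = 1) :
    IsPGroup r (Subgroup.zpowers x) := by
  obtain ⟨j, -, hj⟩ := (Nat.dvd_prime_pow (Fact.out : r.Prime)).mp (orderOf_dvd_of_pow_eq_one hx)
  exact IsPGroup.of_card (n := j) (by rw [Nat.card_zpowers, hj])

theorem exists_pow_eq_one_of_mem {P : Subgroup G} (hP : IsPGroup r P) {x : G} (hx : x ∈ P) :
    ∃ k : ℕ, x ^ r ^ k = 1 := by
  obtain ⟨k, hk⟩ := hP ⟨x, hx⟩
  exact ⟨k, by simpa using congrArg Subtype.val hk⟩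

end coprime

end CfsgLib.Powell
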