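import Cfsg.Agent.Powell16.Algebra
import Cfsg.Agent.Cores.FStar
import Cfsg.Agent.Constrained.Fitting
import Cfsg.Agent.QdSection.Stability
import Cfsg.Prelude.Def_PLocal
import Cfsg.Prelude.Def_LocalEven
import Cfsg.Agent.Eq.Def_Local

/-!
Groups with trivial `r'`-core whose components have nice simple quotients: `r`-elements of `F*`
centralise the `r'`-subgroups they normalise, and elements acting quadratically lie in `F*`.
-/

set_option autoImplicit false
set_option linter.style.haveILetI false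

open scoped commutatorElement
open Cfsg CfsgLib.Cores

namespace CfsgLib.Powell

universe u

variable {W : Type u} [Group W] {r : ℕ}

theorem commutator_central_mul {za zb a b : W} (h1 : Commute za a) (h2 : Commute za b)
    (h3 : Commute zb a) (h4 : Commute zb b) (h5 : Commute za zb) : ⁅za * a, zb * b⁆ = ⁅a, b⁆ := by
  rw [commutatorElement_def, commutatorElement_def, mul_inv_rev, mul_inv_rev]
  have e1 : za * (a * (zb * b) * a⁻¹) = (a * (zb * b) * a⁻¹) * za :=
    ((h1.mul_right (h5.mul_right h2)).mul_right h1.inv_right).eq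
  have e2 : zb * (b * a⁻¹ * b⁻¹) = (b * a⁻¹ * b⁻¹) * zb :=
    ((h4.mul_right h3.inv_right).mul_right h4.inv_right).eq
  calc za * a * (zb * b) * (a⁻¹ * za⁻¹) * (b⁻¹ * zb⁻¹)
      = za * (a * (zb * b) * a⁻¹) * za⁻¹ * b⁻¹ * zb⁻¹ := by group
    _ = a * (zb * (b * a⁻¹ * b⁻¹)) * zb⁻¹ := by rw [e1]; group
    _ = a * b * a⁻¹ * b⁻¹ := by rw [e2]; group

/-- An element acting on a perfect group by central translations centralises it. -/
theorem centralizes_of_central_action {K : Subgroup W} (hK : ⁅K, K⁆ = K) {y : W}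
    (hn : ∀ a ∈ K, y * a * y⁻¹ ∈ K)
    (h : ∀ a ∈ K, y * a * y⁻¹ * a⁻¹ ∈ Subgroup.centralizer (K : Set W)) :
    y ∈ Subgroup.centralizer (K : Set W) := by
  have hle : ⁅K, K⁆ ≤ Subgroup.centralizer ({y} : Set W) := by
    rw [Subgroup.commutator_le]
    intro a ha b hb
    rw [Subgroup.mem_centralizer_singleton_iff]
    have hc : ∀ s ∈ K, ∀ t ∈ K, Commute (y * s * y⁻¹ * s⁻¹) t := fun s hs t ht =>
      (Subgroup.mem_centralizer_iff.mp (h s hs) t ht).symm
    obtain ⟨za, hza⟩ : ∃ za, za = y * a * y⁻¹ * a⁻¹ := ⟨_, rfl⟩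
    obtain ⟨zb, hzb⟩ : ∃ zb, zb = y * b * y⁻¹ * b⁻¹ := ⟨_, rfl⟩
    have hzbK : zb ∈ K := hzb ▸ mul_mem (hn b hb) (inv_mem hb)
    have key : y * ⁅a, b⁆ * y⁻¹ = ⁅a, b⁆ := by
      have e : y * ⁅a, b⁆ * y⁻¹ = ⁅za * a, zb * b⁆ := by
        rw [show za * a = y * a * y⁻¹ by rw [hza]; group,
          show zb * b = y * b * y⁻¹ by rw [hzb]; group]
        simp only [commutatorElement_def]; group
      rw [e]
      exact commutator_central_mul (hza ▸ hc a ha a ha) (hza ▸ hc a ha b hb) (hzb ▸ hc b hb a ha)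
        (hzb ▸ hc b hb b hb) (hza ▸ hc a ha zb hzbK)
    exact (mul_inv_eq_iff_eq_mul.mp key).symm
  rw [hK] at hle
  exact Subgroup.mem_centralizer_iff.mpr fun g hg => Subgroup.mem_centralizer_singleton_iff.mp (hle hg)

/-- The facts about components used below. -/
def CompFacts (r : ℕ) (W : Type u) [Group W] : Prop :=
  ∀ K : Subgroup W, IsComponent K → SimpleFacts r (↥K ⧸ Subgroup.center ↥K)

variable [Finite W] [hr : Fact r.Prime]

theorem dvd_index_center_comp (hO : pPrimeCore r W = ⊥) {K : Subgroup W} (hK : IsComponent K) :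
    r ∣ (Subgroup.center ↥K).index :=
  haveI := hK.2.1
  dvd_index_center_of_dvd_card (dvd_card_of_isComponent hO hK)

theorem fstar_le_cs {K : Subgroup W} (hK : IsComponent K) :
    generalizedFittingSubgroup W ≤ cs K := by
  refine sup_le (layer_le fun L hL => ?_) ?_
  · by_cases h : L = K
    · exact h ▸ le_cs K
    · exact (Subgroup.commutator_eq_bot_iff_le_centralizer.mp
        (commutator_eq_bot_of_ne hL hK h)).trans (centralizer_le_cs K)
  · exact (Subgroup.commutator_eq_bot_iff_le_centralizer.mp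
      (commutator_eq_bot_comm.mp (commutator_component_fitting hK))).trans (centralizer_le_cs K)

theorem fitting_le_pCore' (hO : pPrimeCore r W = ⊥) : fittingSubgroup W ≤ pCore r W :=
  (Constrained.fitting_eq_pCore hO).le

theorem mem_pCore_of_centralizes_comps (hO : pPrimeCore r W = ⊥) {x : W}
    (hx : x ∈ generalizedFittingSubgroup W)
    (h : ∀ K : Subgroup W, IsComponent K → x ∈ Subgroup.centralizer (K : Set W)) :
    x ∈ pCore r W := by
  obtain ⟨e, he, f, hf, rfl⟩ := mem_generalizedFitting_iff_exists.mp hx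
  have hfC : f ∈ Subgroup.centralizer (layer W : Set W) :=
    Subgroup.commutator_eq_bot_iff_le_centralizer.mp commutator_fitting_layer hf
  have heC : e ∈ Subgroup.centralizer (layer W : Set W) := by
    have hxe : e * f ∈ Subgroup.centralizer (layer W : Set W) := by
      have hle : layer W ≤ Subgroup.centralizer ({e * f} : Set W) := layer_le fun L hL t ht => by
        rw [Subgroup.mem_centralizer_singleton_iff]
        exact Subgroup.mem_centralizer_iff.mp (h L hL) t ht
      exact Subgroup.mem_centralizer_iff.mpr fun t ht =>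
        Subgroup.mem_centralizer_singleton_iff.mp (hle ht)
    simpa using mul_mem hxe (inv_mem hfC)
  haveI : IsMulCommutative ↥(layer W ⊓ Subgroup.centralizer (layer W : Set W)) :=
    ⟨⟨fun a b => Subtype.ext (Subgroup.mem_centralizer_iff.mp b.2.2 (a : W) a.2.1)⟩⟩
  exact fitting_le_pCore' hO (mul_mem
    (le_fittingSubgroup_of_isMulCommutative (N := layer W ⊓ Subgroup.centralizer (layer W : Set W))
      inferInstance inferInstance ⟨he, heC⟩) hf)

theorem exists_pow_of_mem_pCore {x : W} (hx : x ∈ pCore r W) : ∃ k : ℕ, x ^ r ^ k = 1 :=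
  exists_pow_eq_one_of_mem Constrained.isPGroup_pCore hx

/-- An `r`-element of `F*` centralises every `r'`-subgroup normalised by it. -/
theorem fstar_tame (hO : pPrimeCore r W = ⊥) (hF : CompFacts r W) {e : W} {k : ℕ}
    (he : e ^ r ^ k = 1) (heF : e ∈ generalizedFittingSubgroup W) {A : Subgroup W}
    (hA : ¬ r ∣ Nat.card A) (hn : ∀ a ∈ A, e * a * e⁻¹ ∈ A) {a : W} (ha : a ∈ A) :
    e * a = a * e := by
  set F := generalizedFittingSubgroup W with hFdef
  have core : ∀ b ∈ A, b ∈ F → e * b = b * e := by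
    intro b hb hbF
    set c := e * b * e⁻¹ * b⁻¹ with hc
    have hcA : c ∈ A := mul_mem (hn b hb) (inv_mem hb)
    have hcF : c ∈ F := mul_mem (mul_mem (mul_mem heF hbF) (inv_mem heF)) (inv_mem hbF)
    have hcore : c ∈ pCore r W := by
      refine mem_pCore_of_centralizes_comps hO hcF fun K hK => ?_
      have hle := fstar_le_cs hK
      set B : Subgroup _ := ((A ⊓ F).subgroupOf (cs K)).map (proj K) with hB
      have hBcard : ¬ r ∣ Nat.card B := by
        intro hd
        apply hA
        refine (hd.trans (Subgroup.card_map_dvd _ _)).trans ?_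
        rw [Nat.card_congr (Subgroup.subgroupOfEquivOfLe (inf_le_right.trans hle)).toEquiv]
        exact Subgroup.card_dvd_of_le inf_le_left
      have hcomm := (hF K hK).tame ((proj K) ⟨e, hle heF⟩) B
        ⟨k, by rw [← map_pow, show (⟨e, hle heF⟩ : cs K) ^ r ^ k = 1 from Subtype.ext (by
          simpa using he), map_one]⟩ hBcard ?_ ((proj K) ⟨b, hle hbF⟩)
        ⟨⟨b, hle hbF⟩, ⟨hb, hbF⟩, rfl⟩
      · refine (proj_eq_one_iff (hle hcF)).mp ?_
        have : (⟨c, hle hcF⟩ : cs K) =
            ⟨e, hle heF⟩ * ⟨b, hle hbF⟩ * ⟨e, hle heF⟩⁻¹ * ⟨b, hle hbF⟩⁻¹ := Subtype.ext rfl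
        rw [this, map_mul, map_mul, map_mul, map_inv, map_inv, hcomm]
        group
      · rintro _ ⟨⟨y, hy⟩, ⟨hyA, hyF⟩, rfl⟩
        refine ⟨⟨e, hle heF⟩ * ⟨y, hy⟩ * ⟨e, hle heF⟩⁻¹, ?_, by rw [map_mul, map_mul, map_inv]⟩
        exact ⟨hn y hyA, F.mul_mem (F.mul_mem heF hyF) (F.inv_mem heF)⟩
    obtain ⟨j, hj⟩ := exists_pow_of_mem_pCore hcore
    have hc1 := eq_one_of_pow_of_not_dvd hcA hA hj
    rw [hc, mul_inv_eq_one] at hc1
    exact mul_inv_eq_iff_eq_mul.mp hc1
  refine commute_of_commutator_fixed hA he ha (hn a ha) ?_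
  refine core _ (mul_mem (hn a ha) (inv_mem ha)) ?_
  rw [mul_assoc, mul_assoc]
  refine mul_mem heF ?_
  rw [← mul_assoc]
  exact (inferInstance : F.Normal).conj_mem _ (inv_mem heF) a

/-- An `r'`-element centralising all `r`-elements of `F*` is trivial. -/
theorem eq_one_of_commute_fstar (hO : pPrimeCore r W = ⊥) {a : W} (ha : ¬ r ∣ orderOf a)
    (h : ∀ e ∈ generalizedFittingSubgroup W, (∃ k : ℕ, e ^ r ^ k = 1) → e * a = a * e) : a = 1 := by
  have hle : generalizedFittingSubgroup W ≤ Subgroup.centralizer ({a} : Set W) := by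
    refine sup_le (layer_le fun K hK => ?_) ?_
    · rw [← pGen_eq_self_of_isQuasisimple hK.2 (dvd_card_of_isComponent hO hK)]
      refine (Subgroup.closure_le _).mpr fun x hx => ?_
      exact Subgroup.mem_centralizer_singleton_iff.mpr
        (h x (layer_le_generalizedFitting (le_layer hK hx.1)) hx.2)
    · intro x hx
      exact Subgroup.mem_centralizer_singleton_iff.mpr
        (h x (fitting_le_generalizedFitting hx) (exists_pow_of_mem_pCore (fitting_le_pCore' hO hx)))
  have hmem : a ∈ pCore r W := fitting_le_pCore' hO (centralizer_generalizedFitting_le_fitting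
    (Subgroup.mem_centralizer_iff.mpr fun x hx =>
      Subgroup.mem_centralizer_singleton_iff.mp (hle hx)))
  obtain ⟨k, hk⟩ := exists_pow_of_mem_pCore hmem
  exact eq_one_of_pow_of_not_dvd (A := Subgroup.zpowers a) (Subgroup.mem_zpowers a)
    (by rwa [Nat.card_zpowers]) hk

/-- `x` acts quadratically on every `r`-subgroup containing it. -/
def IsQuad (r : ℕ) (x : W) : Prop :=
  ∀ S : Subgroup W, IsPGroup r S → x ∈ S → ∀ u ∈ S, ⁅⁅u, x⁆, x⁆ = 1

omit [Finite W] hr in
/-- The subgroup generated by pairwise commuting `r`-elements is an `r`-group. -/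
theorem isPGroup_closure_of_commute {s : Set W} (hs : ∀ a ∈ s, ∀ b ∈ s, a * b = b * a)
    (hp : ∀ a ∈ s, ∃ k : ℕ, a ^ r ^ k = 1) : IsPGroup r (Subgroup.closure s) := by
  intro g
  haveI := Subgroup.isMulCommutative_closure hs
  obtain ⟨g, hg⟩ := g
  suffices h : ∃ k : ℕ, g ^ r ^ k = 1 by
    obtain ⟨k, hk⟩ := h
    exact ⟨k, Subtype.ext (by simpa using hk)⟩
  induction hg using Subgroup.closure_induction with
  | mem x hx => exact hp x hx
  | one => exact ⟨0, one_pow _⟩
  | mul x y hx hy ihx ihy =>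
    obtain ⟨i, hi⟩ := ihx
    obtain ⟨j, hj⟩ := ihy
    refine ⟨i + j, ?_⟩
    have hc : Commute x y := congrArg Subtype.val
      (mul_comm' (⟨x, hx⟩ : Subgroup.closure s) ⟨y, hy⟩)
    rw [hc.mul_pow, pow_add, pow_mul, hi, one_pow, one_mul, ← pow_add, add_comm, pow_add, pow_mul,
      hj, one_pow]
  | inv x hx ih =>
    obtain ⟨i, hi⟩ := ih
    exact ⟨i, by rw [inv_pow, hi, inv_one]⟩

/-- A quadratic element normalises every component. -/
theorem quad_normalizes (hO : pPrimeCore r W = ⊥) (hr2 : r ≠ 2) {x : W} (hx : x ^ r = 1)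
    (hq : IsQuad r x) {K : Subgroup W} (hK : IsComponent K) :
    K.map (MulAut.conj x).toMonoidHom = K := by
  by_contra hne
  obtain ⟨u, huK, ⟨j, hu⟩, huZ⟩ : ∃ u ∈ K, (∃ k : ℕ, u ^ r ^ k = 1) ∧
      u ∉ Subgroup.centralizer (K : Set W) := by
    by_contra hcon
    push Not at hcon
    have h1 : K ≤ Subgroup.centralizer (K : Set W) := by
      conv_lhs => rw [← pGen_eq_self_of_isQuasisimple hK.2 (dvd_card_of_isComponent hO hK)]
      exact (Subgroup.closure_le _).mpr fun y hy => hcon y hy.1 hy.2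
    exact not_commutator_self_eq_bot hK (Subgroup.commutator_eq_bot_iff_le_centralizer.mpr h1)
  have hfix : ∀ m : ℕ, ¬ r ∣ m → K.map (MulAut.conj (x ^ m)).toMonoidHom ≠ K := by
    intro m hm heq
    apply hne
    obtain ⟨n, hn⟩ : ∃ n : ℕ, (x ^ m) ^ n = x := by
      obtain ⟨n, hn⟩ := Nat.exists_mul_mod_eq_one_of_coprime
        ((hr.out.coprime_iff_not_dvd.mpr hm).symm) hr.out.one_lt
      refine ⟨n, ?_⟩
      rw [← pow_mul, ← Nat.div_add_mod (m * n) r, hn.2, pow_add, pow_mul, hx, one_pow, one_mul,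
        pow_one]
    have hmem : x ^ m ∈ Subgroup.normalizer (K : Set W) := by
      rw [Subgroup.mem_normalizer_iff]
      intro y
      constructor
      · intro hy
        rw [← heq]
        exact ⟨y, hy, rfl⟩
      · intro hy
        rw [← heq] at hy
        obtain ⟨z, hz, he⟩ := hy
        have : z = y := (MulAut.conj (x ^ m)).injective he
        exact this ▸ hz
    have hxn : x ∈ Subgroup.normalizer (K : Set W) := by rw [← hn]; exact pow_mem hmem n
    refine le_antisymm ?_ ?_
    · rintro _ ⟨y, hy, rfl⟩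
      exact (Subgroup.mem_normalizer_iff.mp hxn y).mp hy
    · intro y hy
      refine ⟨x⁻¹ * y * x, ?_, by simp [mul_assoc]⟩
      exact (Subgroup.mem_normalizer_iff.mp hxn _).mpr (by simpa [mul_assoc] using hy)
  have hcent : ∀ m : ℕ, ¬ r ∣ m → ∀ y ∈ K, x ^ m * y * (x ^ m)⁻¹ ∈
      Subgroup.centralizer (K : Set W) := by
    intro m hm y hy
    exact Subgroup.commutator_eq_bot_iff_le_centralizer.mp
      (commutator_eq_bot_of_ne (isComponent_conj hK (x ^ m)) hK (hfix m hm)) ⟨y, hy, rfl⟩
  set f : ℕ → W := fun i => x ^ i * u * (x ^ i)⁻¹ with hf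
  have hfu : ∀ m : ℕ, f m * u = u * f m := by
    intro m
    by_cases hm : r ∣ m
    · obtain ⟨t, rfl⟩ := hm
      simp [hf, pow_mul, hx]
    · exact (Subgroup.mem_centralizer_iff.mp (hcent m hm u huK) u huK).symm
  have hadd : ∀ i m : ℕ, f (i + m) = x ^ i * f m * (x ^ i)⁻¹ := fun i m => by
    simp only [hf, pow_add]; group
  have hcomm : ∀ i m : ℕ, f (i + m) * f i = f i * f (i + m) := fun i m => by
    have h0 : f 0 = u := by simp [hf]
    have h := hfu m
    rw [← h0] at h
    calc f (i + m) * f i = x ^ i * (f m * f 0) * (x ^ i)⁻¹ := by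
          rw [show f i = f (i + 0) from rfl, hadd, hadd]; group
      _ = x ^ i * (f 0 * f m) * (x ^ i)⁻¹ := by rw [h]
      _ = f i * f (i + m) := by
          rw [show f i = f (i + 0) from rfl, hadd, hadd]; group
  set U := Subgroup.closure (Set.range f) with hU
  have hUp : IsPGroup r U := by
    refine isPGroup_closure_of_commute ?_ ?_
    · rintro _ ⟨i, rfl⟩ _ ⟨m, rfl⟩
      rcases le_total i m with h | h
      · obtain ⟨d, rfl⟩ := Nat.exists_eq_add_of_le h
        exact (hcomm i d).symm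
      · obtain ⟨d, rfl⟩ := Nat.exists_eq_add_of_le h
        exact hcomm m d
    · rintro _ ⟨i, rfl⟩
      exact ⟨j, by
        show (MulAut.conj (x ^ i) u) ^ r ^ j = 1
        rw [← map_pow, hu, map_one]⟩
  have hxU : Subgroup.zpowers x ≤ Subgroup.normalizer (U : Set W) := by
    rw [Subgroup.zpowers_le]
    have hstep : U.map (MulAut.conj x).toMonoidHom ≤ U := by
      rw [hU, MonoidHom.map_closure]
      refine (Subgroup.closure_le _).mpr ?_
      rintro _ ⟨_, ⟨i, rfl⟩, rfl⟩
      refine Subgroup.subset_closure ⟨1 + i, ?_⟩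
      simp [hadd]
    have heq : U.map (MulAut.conj x).toMonoidHom = U :=
      Subgroup.eq_of_le_of_card_ge hstep
        (le_of_eq (Subgroup.card_map_of_injective (MulAut.conj x).injective).symm)
    rw [Subgroup.mem_normalizer_iff]
    intro y
    constructor
    · intro hy
      rw [← heq]
      exact ⟨y, hy, rfl⟩
    · intro hy
      rw [← heq] at hy
      obtain ⟨z, hz, he⟩ := hy
      have : z = y := by simpa using he
      exact this ▸ hz
  have hS : IsPGroup r ↥(Subgroup.zpowers x ⊔ U) :=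
    (isPGroup_zpowers_of_pow (k := 1) (by rwa [pow_one])).to_sup_of_normal_right' hUp hxU
  have h := hq _ hS (Subgroup.mem_sup_left (Subgroup.mem_zpowers x)) u
    (Subgroup.mem_sup_right (Subgroup.subset_closure ⟨0, by simp [hf]⟩))
  apply huZ
  have hsolve : u = f 1 * (f 2)⁻¹ * f 1 := by
    have e : ⁅⁅u, x⁆, x⁆ = u * (f 1)⁻¹ * f 2 * (f 1)⁻¹ := by
      simp only [commutatorElement_def, hf, pow_two, pow_one]; group
    rw [e] at h
    calc u = (u * (f 1)⁻¹ * f 2 * (f 1)⁻¹) * (f 1 * (f 2)⁻¹ * f 1) := by group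
      _ = f 1 * (f 2)⁻¹ * f 1 := by rw [h, one_mul]
  have h2 : ¬ r ∣ 2 := fun hd => hr2 ((Nat.prime_dvd_prime_iff_eq hr.out Nat.prime_two).mp hd)
  rw [hsolve]
  exact mul_mem (mul_mem (hcent 1 hr.out.not_dvd_one u huK) (inv_mem (hcent 2 h2 u huK)))
    (hcent 1 hr.out.not_dvd_one u huK)

/-- A quadratic element induces an inner automorphism on every component. -/
theorem quad_exists_inner (hO : pPrimeCore r W = ⊥) (hF : CompFacts r W) (hr2 : r ≠ 2) {x : W}
    (hx : x ^ r = 1) (hq : IsQuad r x) {K : Subgroup W} (hK : IsComponent K) :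
    ∃ k ∈ K, k⁻¹ * x ∈ Subgroup.centralizer (K : Set W) := by
  have heq := quad_normalizes hO hr2 hx hq hK
  have hn : ∀ a ∈ K, x * a * x⁻¹ ∈ K := fun a ha => heq.le ⟨a, ha, rfl⟩
  let e : ↥K ≃* ↥K :=
    ((MulAut.conj x).subgroupMap K).trans (MulEquiv.subgroupCongr heq)
  have he : ∀ a : K, (e a : W) = x * a * x⁻¹ := fun a => rfl
  let φ : MulAut (↥K ⧸ Subgroup.center ↥K) :=
    QuotientGroup.congr _ _ e
      (Subgroup.characteristic_iff_map_eq.mp inferInstance e)
  have hφ : ∀ a : K, φ (QuotientGroup.mk a) = QuotientGroup.mk (e a) := fun a => rfl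
  have hpow : ∀ (n : ℕ) (a : K), ∃ b : K, (b : W) = x ^ n * a * (x ^ n)⁻¹ ∧
      (φ ^ n) (QuotientGroup.mk a) = QuotientGroup.mk b := by
    intro n
    induction n with
    | zero => exact fun a => ⟨a, by simp, rfl⟩
    | succ n ih =>
      intro a
      obtain ⟨b, hb, hb'⟩ := ih a
      refine ⟨e b, ?_, ?_⟩
      · rw [he, hb, pow_succ']; group
      · rw [pow_succ', MulAut.mul_apply, hb', hφ]
  have hφr : φ ^ r = 1 := by
    ext q
    obtain ⟨a, rfl⟩ := QuotientGroup.mk_surjective q
    obtain ⟨b, hb, hb'⟩ := hpow r a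
    rw [hx] at hb
    have : b = a := Subtype.ext (by simpa using hb)
    rw [hb', this]
    rfl
  obtain ⟨q, hq'⟩ := (hF K hK).inner φ hφr
  obtain ⟨k, rfl⟩ := QuotientGroup.mk_surjective q
  refine ⟨k, k.2, centralizes_of_central_action (commutator_self_of_isComponent hK)
    (fun a ha => ?_) (fun a ha => ?_)⟩
  · have e1 : (k : W)⁻¹ * x * a * ((k : W)⁻¹ * x)⁻¹ = (k : W)⁻¹ * (x * a * x⁻¹) * k := by group
    rw [e1]
    exact mul_mem (mul_mem (inv_mem k.2) (hn a ha)) k.2
  · have h1 := DFunLike.congr_fun hq' (QuotientGroup.mk ⟨a, ha⟩)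
    rw [hφ, MulAut.conj_apply, ← QuotientGroup.mk_inv, ← QuotientGroup.mk_mul,
      ← QuotientGroup.mk_mul, QuotientGroup.eq] at h1
    refine Subgroup.mem_centralizer_iff.mpr fun g hg => ?_
    set b : K := k⁻¹ * e ⟨a, ha⟩ * k * ⟨a, ha⟩⁻¹ with hb
    have hbc : b ∈ Subgroup.center ↥K := by
      have h2 := (inferInstance : (Subgroup.center ↥K).Normal).conj_mem _ (inv_mem h1)
        (⟨a, ha⟩ * k⁻¹)
      convert h2 using 1
      rw [hb]; group
    have hbv : (b : W) = (k : W)⁻¹ * x * a * ((k : W)⁻¹ * x)⁻¹ * a⁻¹ := by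
      simp only [hb, Subgroup.coe_mul, Subgroup.coe_inv, he]; group
    rw [← hbv]
    exact congrArg Subtype.val (Subgroup.mem_center_iff.mp hbc ⟨g, hg⟩)

theorem quad_exists_layer (hO : pPrimeCore r W = ⊥) (hF : CompFacts r W) (hr2 : r ≠ 2) {x : W}
    (hx : x ^ r = 1) (hq : IsQuad r x) :
    ∃ e ∈ layer W, ∀ K : Subgroup W, IsComponent K → e⁻¹ * x ∈ Subgroup.centralizer (K : Set W) := by
  classical
  suffices key : ∀ s : Finset (Subgroup W), (∀ K ∈ s, IsComponent K) → ∃ e ∈ layer W,
      (∀ K : Subgroup W, IsComponent K → K ∉ s → e ∈ Subgroup.centralizer (K : Set W)) ∧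
      ∀ K ∈ s, e⁻¹ * x ∈ Subgroup.centralizer (K : Set W) by
    haveI := Fintype.ofFinite (Subgroup W)
    obtain ⟨e, he, -, hes⟩ := key (Finset.univ.filter fun K => IsComponent K)
      fun K hK => (Finset.mem_filter.mp hK).2
    exact ⟨e, he, fun K hK => hes K (Finset.mem_filter.mpr ⟨Finset.mem_univ _, hK⟩)⟩
  intro s
  induction s using Finset.induction_on with
  | empty => exact fun _ => ⟨1, one_mem _, fun _ _ _ => one_mem _, by simp⟩
  | insert K s hKs ih =>
    intro hs
    have hK := hs K (Finset.mem_insert_self K s)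
    obtain ⟨e, he, hout, hin⟩ := ih fun L hL => hs L (Finset.mem_insert_of_mem hL)
    obtain ⟨k, hk, hkx⟩ := quad_exists_inner hO hF hr2 hx hq hK
    have heK := hout K hK hKs
    have hkL : ∀ L : Subgroup W, IsComponent L → L ≠ K → k ∈ Subgroup.centralizer (L : Set W) :=
      fun L hL hne => Subgroup.commutator_eq_bot_iff_le_centralizer.mp
        (commutator_eq_bot_of_ne hK hL (Ne.symm hne)) hk
    refine ⟨e * k, mul_mem he (le_layer hK hk), fun L hL hLs => ?_, fun L hL => ?_⟩
    · rw [Finset.mem_insert, not_or] at hLs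
      exact mul_mem (hout L hL hLs.2) (hkL L hL hLs.1)
    · rw [mul_inv_rev, mul_assoc]
      rcases Finset.mem_insert.mp hL with rfl | hL'
      · have : k⁻¹ * (e⁻¹ * x) = k⁻¹ * e⁻¹ * k * (k⁻¹ * x) := by group
        rw [this]
        refine mul_mem ?_ hkx
        refine Subgroup.mem_centralizer_iff.mpr fun g hg => ?_
        have hc := Subgroup.mem_centralizer_iff.mp (inv_mem heK) k hk
        rw [mul_assoc k⁻¹ e⁻¹ k, ← hc, inv_mul_cancel_left]
        exact Subgroup.mem_centralizer_iff.mp (inv_mem heK) g hg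
      · exact mul_mem (inv_mem (hkL L (hs L hL) fun h => hKs (h ▸ hL'))) (hin L hL')

/-- **A quadratic element of a `Qd(r)`-free group lies in `F*`.** -/
theorem quad_mem_fstar (hO : pPrimeCore r W = ⊥) (hF : CompFacts r W) (hr2 : r ≠ 2)
    (hqd : ¬ Involves (Cfsg.qd r) W) {x : W} (hx : x ^ r = 1) (hq : IsQuad r x) :
    x ∈ generalizedFittingSubgroup W := by
  obtain ⟨e, he, hec⟩ := quad_exists_layer hO hF hr2 hx hq
  set O := pCore r W with hOdef
  set C := Subgroup.centralizer (O : Set W) with hCdef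
  have hOp : IsPGroup r O := Constrained.isPGroup_pCore
  have heC : e ∈ C := Subgroup.commutator_eq_bot_iff_le_centralizer.mp
    (commutator_eq_bot_comm.mp commutator_layer_pCore) he
  have hxO : IsPGroup r ↥(Subgroup.zpowers x ⊔ O) :=
    (isPGroup_zpowers_of_pow (k := 1) (by rwa [pow_one])).to_sup_of_normal_right' hOp
      (by rw [Subgroup.normalizer_eq_top_iff.mpr inferInstance]; exact le_top)
  have hmk := CfsgLib.QdSection.mem_pCore_quotient_of_qdFree hr2 hqd O hOp (a := x) fun v hv =>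
    hq _ hxO (Subgroup.mem_sup_left (Subgroup.mem_zpowers x)) v (Subgroup.mem_sup_right hv)
  set c := e⁻¹ * x with hcdef
  set E := Subgroup.centralizer (layer W : Set W) with hE
  set D := (pCore r (W ⧸ C)).comap (QuotientGroup.mk' C) ⊓ E with hD
  haveI : D.Normal := inferInstance
  have hDp : IsPGroup r D := by
    rintro ⟨d, hdC, hdE⟩
    obtain ⟨i, hi⟩ := exists_pow_of_mem_pCore (Subgroup.mem_comap.mp hdC)
    have h1 : d ^ r ^ i ∈ C := by
      rw [← map_pow] at hi
      exact (QuotientGroup.eq_one_iff _).mp hi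
    have h2 : d ^ r ^ i ∈ E := pow_mem hdE _
    have h3 : d ^ r ^ i ∈ fittingSubgroup W := by
      refine centralizer_generalizedFitting_le_fitting ?_
      have hle : generalizedFittingSubgroup W ≤ Subgroup.centralizer ({d ^ r ^ i} : Set W) := by
        refine sup_le (fun g hg => ?_) (fun g hg => ?_)
        · exact Subgroup.mem_centralizer_singleton_iff.mpr (Subgroup.mem_centralizer_iff.mp h2 g hg)
        · exact Subgroup.mem_centralizer_singleton_iff.mpr
            (Subgroup.mem_centralizer_iff.mp h1 g (fitting_le_pCore' hO hg))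
      exact Subgroup.mem_centralizer_iff.mpr fun g hg =>
        Subgroup.mem_centralizer_singleton_iff.mp (hle hg)
    obtain ⟨j, hj⟩ := exists_pow_of_mem_pCore (fitting_le_pCore' hO h3)
    exact ⟨i + j, Subtype.ext (by rw [pow_add, pow_mul]; simpa using hj)⟩
  have hcE : c ∈ E := by
    have hle : layer W ≤ Subgroup.centralizer ({c} : Set W) := layer_le fun K hK g hg =>
      Subgroup.mem_centralizer_singleton_iff.mpr (Subgroup.mem_centralizer_iff.mp (hec K hK) g hg)
    exact Subgroup.mem_centralizer_iff.mpr fun g hg =>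
      Subgroup.mem_centralizer_singleton_iff.mp (hle hg)
  have hcD : c ∈ D := by
    refine ⟨?_, hcE⟩
    show QuotientGroup.mk' C c ∈ pCore r (W ⧸ C)
    rw [hcdef, map_mul, map_inv, show QuotientGroup.mk' C e = 1 from
      (QuotientGroup.eq_one_iff e).mpr heC, inv_one, one_mul]
    exact hmk
  have hcO : c ∈ O := Constrained.le_pCore inferInstance hDp hcD
  have hxe : x = e * c := by rw [hcdef, mul_inv_cancel_left]
  rw [hxe]
  exact mul_mem (layer_le_generalizedFitting he)
    (fitting_le_generalizedFitting (Constrained.pCore_le_fitting hcO))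

end CfsgLib.Powell
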