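import Cfsg.Agent.Powell16.Layer
import Cfsg.Agent.Eq.Def_Amalgam

/-!
The setting of the three-generator theorem, the `r'`-cores of proper subgroups and their quotients.
-/

set_option autoImplicit false
set_option linter.style.haveILetI false

open scoped commutatorElement Pointwise
open Cfsg CfsgLib.Cores

namespace CfsgLib.Powell

universe u

/-- The hypotheses under which three generators are found (stated as a contradiction setting). -/
structure Setup (G : Type u) [Group G] (r : ℕ) : Prop where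
  odd : r ≠ 2
  dvd : r ∣ Nat.card G
  simple : IsSimpleGroup G
  noncomm : ∃ a b : G, a * b ≠ b * a
  gen : ∀ a b c : G, Subgroup.closure ({a, b, c} : Set G) ≠ ⊤
  qd : ¬ Involves (Cfsg.qd r) G
  facts : ∀ H : Subgroup G, H ≠ ⊤ → ∀ (Q : Type u) [Group Q] [Finite Q], IsSimpleGroup Q →
    (∃ a b : Q, a * b ≠ b * a) → r ∣ Nat.card Q → ∀ f : ↥H →* Q, Function.Surjective f →
    SimpleFacts r Q

variable {G : Type u} [Group G] {r : ℕ}

/-- `O_{r'}(M)` as a subgroup of the whole group. -/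
def coreIn (r : ℕ) (M : Subgroup G) : Subgroup G :=
  (pPrimeCore r ↥M).map M.subtype

theorem coreIn_le (M : Subgroup G) : coreIn r M ≤ M := Subgroup.map_subtype_le _

theorem mk_eq_one_iff {M : Subgroup G} {x : G} (hx : x ∈ M) :
    QuotientGroup.mk' (pPrimeCore r ↥M) ⟨x, hx⟩ = 1 ↔ x ∈ coreIn r M := by
  rw [QuotientGroup.mk'_apply, QuotientGroup.eq_one_iff]
  exact ⟨fun h => ⟨_, h, rfl⟩, fun ⟨y, hy, he⟩ => (Subtype.ext he : y = ⟨x, hx⟩) ▸ hy⟩

theorem coreIn_conj_mem {M : Subgroup G} {g y : G} (hg : g ∈ M) (hy : y ∈ coreIn r M) :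
    g * y * g⁻¹ ∈ coreIn r M := by
  obtain ⟨z, hz, rfl⟩ := hy
  exact ⟨⟨g, hg⟩ * z * ⟨g, hg⟩⁻¹, (inferInstance : (pPrimeCore r ↥M).Normal).conj_mem _ hz _, rfl⟩

variable [Finite G] [hr : Fact r.Prime]

theorem not_dvd_coreIn (M : Subgroup G) : ¬ r ∣ Nat.card (coreIn r M) := by
  rw [coreIn, Subgroup.card_map_of_injective M.subtype_injective]
  exact Constrained.pPrimeCore_not_dvd

theorem mem_coreIn_of_normalized {H : Subgroup G} {A : Subgroup G} (hA : A ≤ H)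
    (hn : ∀ g ∈ H, ∀ a ∈ A, g * a * g⁻¹ ∈ A) (hd : ¬ r ∣ Nat.card A) : A ≤ coreIn r H := by
  intro a ha
  haveI : (A.subgroupOf H).Normal := ⟨fun x hx g => hn g g.2 x hx⟩
  refine ⟨⟨a, hA ha⟩, Constrained.le_pPrimeCore_of_not_dvd (N := A.subgroupOf H) inferInstance ?_
    ha, rfl⟩
  rwa [Nat.card_congr (Subgroup.subgroupOfEquivOfLe hA).toEquiv]

theorem mem_coreIn_of_le {H M : Subgroup G} (hHM : H ≤ M) {y : G} (hy : y ∈ coreIn r M)
    (hyH : y ∈ H) : y ∈ coreIn r H := by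
  refine mem_coreIn_of_normalized (A := coreIn r M ⊓ H) inf_le_right (fun g hg a ha =>
    ⟨coreIn_conj_mem (hHM hg) ha.1, H.mul_mem (H.mul_mem hg ha.2) (H.inv_mem hg)⟩) ?_ ⟨hy, hyH⟩
  exact fun hd => not_dvd_coreIn M (hd.trans (Subgroup.card_dvd_of_le inf_le_left))

theorem eq_one_of_mem_coreIn {M : Subgroup G} {x : G} {k : ℕ} (hx : x ∈ coreIn r M)
    (hk : x ^ r ^ k = 1) : x = 1 :=
  eq_one_of_pow_of_not_dvd hx (not_dvd_coreIn M) hk

theorem hat_core_eq_bot (M : Subgroup G) : pPrimeCore r (↥M ⧸ pPrimeCore r ↥M) = ⊥ :=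
  Constrained.pPrimeCore_quotient_pPrimeCore

theorem Setup.hat_facts (h : Setup G r) {M : Subgroup G} (hM : M ≠ ⊤) :
    CompFacts r (↥M ⧸ pPrimeCore r ↥M) := by
  intro K hK
  set f := QuotientGroup.mk' (pPrimeCore r ↥M) with hf
  set H := (K.comap f).map M.subtype with hH
  have hHne : H ≠ ⊤ := fun e => hM (top_le_iff.mp (e ▸ Subgroup.map_subtype_le _))
  haveI := hK.2.2
  refine h.facts H hHne _ hK.2.2 ?_ ?_ (((QuotientGroup.mk' (Subgroup.center ↥K)).comp
    (f.subgroupComap K)).comp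
      ((K.comap f).equivMapOfInjective M.subtype M.subtype_injective).symm.toMonoidHom) ?_
  · by_contra hc
    push Not at hc
    apply center_ne_top_of_isQuasisimple hK.2
    haveI := hK.2.1
    rw [eq_top_iff, ← Group.IsPerfect.commutator_eq_top (G := ↥K), commutator_def,
      Subgroup.commutator_le]
    intro a _ b _
    rw [← QuotientGroup.eq_one_iff, ← QuotientGroup.mk'_apply, map_commutatorElement,
      commutatorElement_eq_one_iff_mul_comm]
    exact hc _ _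
  · rw [← Subgroup.index_eq_card]
    exact dvd_index_center_comp (hat_core_eq_bot M) hK
  · refine ((QuotientGroup.mk'_surjective _).comp ?_).comp (MulEquiv.surjective _)
    rintro ⟨y, hy⟩
    obtain ⟨x, rfl⟩ := QuotientGroup.mk'_surjective (pPrimeCore r ↥M) y
    exact ⟨⟨x, hy⟩, rfl⟩

omit [Finite G] hr in
theorem Setup.hat_qd (h : Setup G r) (M : Subgroup G) :
    ¬ Involves (Cfsg.qd r) (↥M ⧸ pPrimeCore r ↥M) := fun hi =>
  h.qd (CfsgLib.QdSection.involves_of_injective M.subtype M.subtype_injective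
    (CfsgLib.QdSection.involves_of_surjective _ (QuotientGroup.mk'_surjective _) hi))

/-- An `r`-subgroup of an image is the image of an `r`-subgroup through a given `r`-element. -/
theorem exists_pGroup_lift {A : Type*} [Group A] [Finite A] {B : Type*} [Group B] (f : A →* B)
    (hf : Function.Surjective f) {S : Subgroup B} (hS : IsPGroup r S) {z : A} {k : ℕ}
    (hz : z ^ r ^ k = 1) (hzS : f z ∈ S) :
    ∃ T : Subgroup A, IsPGroup r T ∧ z ∈ T ∧ T.map f = S ∧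
      (∀ T' : Subgroup A, T ≤ T' → T' ≤ S.comap f → IsPGroup r T' → T' = T) := by
  set P := S.comap f with hP
  have hsurj : Function.Surjective (f.subgroupComap S) := by
    rintro ⟨y, hy⟩
    obtain ⟨x, rfl⟩ := hf y
    exact ⟨⟨x, hy⟩, rfl⟩
  have hzp : IsPGroup r (Subgroup.zpowers (⟨z, hzS⟩ : P)) :=
    isPGroup_zpowers_of_pow (k := k) (Subtype.ext (by simpa using hz))
  obtain ⟨Q, hQ⟩ := hzp.exists_le_sylow
  haveI : Finite B := Finite.of_surjective f hf
  have hQS : (Q : Subgroup P).map (f.subgroupComap S) = ⊤ := by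
    have h1 := (Q.mapSurjective hsurj).is_maximal' (Q := ⊤) (hS.of_equiv Subgroup.topEquiv.symm)
      le_top
    exact h1.symm
  refine ⟨(Q : Subgroup P).map P.subtype, Q.2.map _, ⟨_, hQ (Subgroup.mem_zpowers _), rfl⟩, ?_, ?_⟩
  · have hcomp : f.comp P.subtype = S.subtype.comp (f.subgroupComap S) := rfl
    rw [Subgroup.map_map, hcomp, ← Subgroup.map_map, hQS, ← MonoidHom.range_eq_map,
      Subgroup.range_subtype]
  · intro T' hle hT' hT'p
    have hQle : (Q : Subgroup P) ≤ T'.subgroupOf P := fun x hx => hle ⟨x, hx, rfl⟩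
    have h2 := Q.is_maximal' (hT'p.comap_of_injective P.subtype P.subtype_injective) hQle
    rw [← h2]
    exact (Subgroup.map_subgroupOf_eq_of_le hT').symm

omit [Finite G] hr in
/-- A quadratic element stays quadratic modulo the core. -/
theorem hat_isQuad [Finite G] [Fact r.Prime] {M : Subgroup G} {z : G} (hz : z ∈ M)
    (hzr : z ^ r = 1) (hq : IsQuad r z) :
    IsQuad r (QuotientGroup.mk' (pPrimeCore r ↥M) ⟨z, hz⟩) := by
  intro S hS hzS u hu
  obtain ⟨T, hT, hzT, hTS, -⟩ := exists_pGroup_lift _ (QuotientGroup.mk'_surjective _) hS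
    (z := (⟨z, hz⟩ : M)) (k := 1) (Subtype.ext (by simpa using hzr)) hzS
  rw [← hTS] at hu
  obtain ⟨v, hv, rfl⟩ := hu
  rw [← map_commutatorElement, ← map_commutatorElement]
  have h1 := hq (T.map M.subtype) (hT.map _) ⟨_, hzT, rfl⟩ v ⟨_, hv, rfl⟩
  have h2 : ⁅⁅v, (⟨z, hz⟩ : M)⁆, (⟨z, hz⟩ : M)⁆ = 1 := Subtype.ext h1
  rw [h2, map_one]

omit [Finite G] hr in
/-- Two `r`-elements centralising the core whose images lie in a common `r`-group do so themselves. -/
theorem exists_common_pGroup [Finite G] [Fact r.Prime] {M : Subgroup G} {a b : G} (ha : a ∈ M)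
    (hb : b ∈ M) {i j : ℕ} (hai : a ^ r ^ i = 1) (hbj : b ^ r ^ j = 1)
    (hac : ∀ y ∈ coreIn r M, y * a = a * y)
    {S : Subgroup (↥M ⧸ pPrimeCore r ↥M)} (hS : IsPGroup r S)
    (haS : QuotientGroup.mk' _ ⟨a, ha⟩ ∈ S) (hbS : QuotientGroup.mk' _ ⟨b, hb⟩ ∈ S) :
    ∃ U : Subgroup G, IsPGroup r U ∧ a ∈ U ∧ b ∈ U := by
  set f := QuotientGroup.mk' (pPrimeCore r ↥M) with hf
  have hfs := QuotientGroup.mk'_surjective (pPrimeCore r ↥M)
  obtain ⟨T, hT, haT, hTS, hTmax⟩ := exists_pGroup_lift f hfs hS (z := (⟨a, ha⟩ : M)) (k := i)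
    (Subtype.ext (by simpa using hai)) haS
  obtain ⟨T', hT', hbT', hTS', hTmax'⟩ := exists_pGroup_lift f hfs hS (z := (⟨b, hb⟩ : M)) (k := j)
    (Subtype.ext (by simpa using hbj)) hbS
  have hTP : T ≤ S.comap f := fun x hx => Subgroup.mem_comap.mpr (hTS ▸ ⟨x, hx, rfl⟩)
  have hTP' : T' ≤ S.comap f := fun x hx => Subgroup.mem_comap.mpr (hTS' ▸ ⟨x, hx, rfl⟩)
  let mkS : ∀ T : Subgroup ↥M, T ≤ S.comap f → IsPGroup r T →
      (∀ T' : Subgroup ↥M, T ≤ T' → T' ≤ S.comap f → IsPGroup r T' → T' = T) →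
      Sylow r ↥(S.comap f) := fun T hle hp hmax =>
    ⟨T.subgroupOf (S.comap f), hp.comap_of_injective _ (S.comap f).subtype_injective, by
      intro Q hQ hQT
      have h1 := hmax (Q.map (S.comap f).subtype) (fun x hx => ⟨⟨x, hle hx⟩, hQT hx, rfl⟩)
        (Subgroup.map_subtype_le _) (hQ.map _)
      rw [← h1]
      exact (Subgroup.comap_map_eq_self_of_injective (S.comap f).subtype_injective Q).symm⟩
  obtain ⟨q, hq⟩ := MulAction.exists_smul_eq (↥(S.comap f)) (mkS T hTP hT hTmax)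
    (mkS T' hTP' hT' hTmax')
  obtain ⟨t, htT, hft⟩ : f (q : M) ∈ T.map f := hTS.symm ▸ q.2
  set ρ : M := (q : M) * t⁻¹ with hρ
  have hρR : (ρ : G) ∈ coreIn r M := (mk_eq_one_iff ρ.2).mp (by
    show f ρ = 1
    rw [hρ, map_mul, map_inv, hft, mul_inv_cancel])
  have hρa : ρ * ⟨a, ha⟩ * ρ⁻¹ = ⟨a, ha⟩ := Subtype.ext (by
    simp only [Subgroup.coe_mul, Subgroup.coe_inv]
    rw [hac _ hρR, mul_inv_cancel_right])
  refine ⟨T'.map M.subtype, hT'.map _, ⟨⟨a, ha⟩, ?_, rfl⟩, ⟨_, hbT', rfl⟩⟩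
  have hmem : t⁻¹ * ⟨a, ha⟩ * t ∈ T := mul_mem (mul_mem (inv_mem htT) haT) htT
  have h2 : q * ⟨_, hTP hmem⟩ * q⁻¹ ∈ (q • mkS T hTP hT hTmax : Sylow r ↥(S.comap f)) := by
    have h3 : (MulAut.conj q) • (⟨_, hTP hmem⟩ : ↥(S.comap f)) ∈
        (MulAut.conj q) • (mkS T hTP hT hTmax : Subgroup ↥(S.comap f)) :=
      Subgroup.smul_mem_pointwise_smul _ _ _ hmem
    exact h3
  rw [hq] at h2
  have h4 : (q : M) * (t⁻¹ * ⟨a, ha⟩ * t) * (q : M)⁻¹ ∈ T' := h2
  have h5 : (q : M) * (t⁻¹ * ⟨a, ha⟩ * t) * (q : M)⁻¹ = ρ * ⟨a, ha⟩ * ρ⁻¹ := by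
    rw [hρ]; group
  rwa [h5, hρa] at h4

end CfsgLib.Powell
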