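import Cfsg.Agent.Powell16.Algebra
import Cfsg.Agent.Suzuki.Classification
import Cfsg.Agent.Suzuki.SubfieldModel
import Cfsg.Agent.Suzuki.Generate
import Cfsg.Agent.Suzuki.LieModel
import Cfsg.Agent.Suzuki.OddSubgroups
import Cfsg.Agent.Suzuki.TorusExist
import Cfsg.Agent.SuzukiAut.Out
import Cfsg.Agent.Eq.Def_Sz
import Cfsg.Agent.Zsigmondy.Basic

/-!
The facts about `Sz(2^(2m+1))` at a prime `r` with `2` of order `4(2m+1)` modulo `r`.
-/

set_option autoImplicit false
set_option linter.style.haveILetI false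

open scoped Pointwise
open CfsgLib.Suzuki

namespace CfsgLib.Powell

universe u v

/-- The facts pass along isomorphisms. -/
theorem SimpleFacts.map {r : ℕ} {Q : Type u} {Q' : Type v} [Group Q] [Group Q']
    (h : SimpleFacts r Q) (e : Q ≃* Q') : SimpleFacts r Q' where
  cyclic P := by
    haveI : IsCyclic ↥((P : Subgroup Q').comap e.toMonoidHom) :=
      h.cyclic (P.comapOfInjective e.toMonoidHom e.injective
        (by rw [MonoidHom.range_eq_top_of_surjective e.toMonoidHom e.surjective]; exact le_top))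
    refine isCyclic_of_surjective (e.toMonoidHom.subgroupComap (P : Subgroup Q')) fun y => ?_
    obtain ⟨y, hy⟩ := y
    exact ⟨⟨e.symm y, by simpa using hy⟩, Subtype.ext (e.apply_symm_apply y)⟩
  tame l A hl hA hn a ha := by
    obtain ⟨k, hk⟩ := hl
    have h1 := h.tame (e.symm l) (A.map e.symm.toMonoidHom) ⟨k, by rw [← map_pow, hk, map_one]⟩
      (by rwa [Subgroup.card_map_of_injective e.symm.injective]) ?_ (e.symm a) ⟨a, ha, rfl⟩
    · rw [← map_mul, ← map_mul] at h1
      exact e.symm.injective h1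
    · rintro _ ⟨b, hb, rfl⟩
      refine ⟨l * b * l⁻¹, hn b hb, ?_⟩
      simp
  inner φ hφ := by
    obtain ⟨g, hg⟩ := h.inner ((MulAut.congr e).symm φ) (by rw [← map_pow, hφ, map_one])
    refine ⟨e g, MulEquiv.ext fun x => ?_⟩
    have := congrArg e (DFunLike.congr_fun hg (e.symm x))
    simpa using this
  twoGen := by
    obtain ⟨a, b, hab⟩ := h.twoGen
    refine ⟨e a, e b, ?_⟩
    have h1 := congrArg (Subgroup.map e.toMonoidHom) hab
    rwa [MonoidHom.map_closure, Set.image_pair, Subgroup.map_top_of_surjective _ e.surjective] at h1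

variable {F : Type*} [Field F] [Fintype F] [CharP F 2] {m r : ℕ}

theorem sz_suzuki_simpleFacts [hr : Fact r.Prime] (hm : 1 ≤ m) (hF : Fintype.card F = 2 ^ (2 * m + 1))
    (hord : orderOf ((2 : ℕ) : ZMod r) = 4 * (2 * m + 1)) : SimpleFacts r (grp (theta F m)) := by
  classical
  haveI : Fact (Nat.Prime 2) := ⟨Nat.prime_two⟩
  set G := grp (theta F m) with hG
  have hT := titsEndo_theta hm hF
  have hdvd : ∀ k : ℕ, r ∣ 2 ^ k - 1 ↔ 4 * (2 * m + 1) ∣ k := fun k => by
    rw [CfsgLib.Zsigmondy.dvd_pow_sub_one_iff (by norm_num) k, hord]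
  have hr2 : r ≠ 2 := by
    intro h
    subst h
    have : ((2 : ℕ) : ZMod 2) = 0 := ZMod.natCast_self 2
    rw [this, orderOf_eq_zero] at hord
    · omega
    · intro hfin
      obtain ⟨n, hn, h1⟩ := isOfFinOrder_iff_pow_eq_one.mp hfin
      rw [zero_pow (by omega)] at h1
      exact zero_ne_one h1
  have hrn : ¬ r ∣ 2 * m + 1 := by
    intro hd
    have hle := Nat.le_of_dvd (by omega) hd
    have hne : ((2 : ℕ) : ZMod r) ≠ 0 := by
      rw [Ne, ZMod.natCast_eq_zero_iff]
      exact fun h => hr2 ((Nat.prime_dvd_prime_iff_eq hr.out Nat.prime_two).mp h)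
    have h1 := ZMod.orderOf_dvd_card_sub_one hne
    rw [hord] at h1
    have := Nat.le_of_dvd (Nat.sub_pos_of_lt hr.out.one_lt) h1
    omega
  have hrq : ¬ r ∣ 2 ^ (2 * m + 1) - 1 := fun h => by
    have := Nat.le_of_dvd (by omega) ((hdvd _).mp h)
    omega
  have hr2' : ∀ k : ℕ, ¬ r ∣ 2 ^ k := fun k h =>
    hr2 ((Nat.prime_dvd_prime_iff_eq hr.out Nat.prime_two).mp (hr.out.dvd_of_dvd_pow h))
  constructor
  · exact fun P => sylow_odd_cyclic hm hF hr2 P
  · rintro l A ⟨k, hk⟩ hA hn a ha
    rcases eq_or_ne l 1 with rfl | hl1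
    · simp
    have hrl : r ∣ orderOf l := by
      obtain ⟨j, -, hj⟩ := (Nat.dvd_prime_pow hr.out).mp (orderOf_dvd_of_pow_eq_one hk)
      rw [hj]
      refine dvd_pow_self r fun h0 => hl1 ?_
      rw [← orderOf_eq_one_iff, hj, h0, pow_zero]
    rcases eq_or_ne A ⊥ with rfl | hAbot
    · rw [Subgroup.mem_bot.mp ha]; simp
    have hlA : A.map (MulAut.conj l).toMonoidHom = A := by
      refine Subgroup.eq_of_le_of_card_ge ?_
        (le_of_eq (Subgroup.card_map_of_injective (MulAut.conj l).injective).symm)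
      rintro _ ⟨b, hb, rfl⟩
      exact hn b hb
    have hlN : l ∈ Subgroup.normalizer (A : Set G) := by
      rw [Subgroup.mem_normalizer_iff]
      intro b
      refine ⟨hn b, fun hb => ?_⟩
      rw [← hlA] at hb
      obtain ⟨c, hc, he⟩ := hb
      exact ((MulAut.conj l).injective he : c = b) ▸ hc
    set T := A ⊔ Subgroup.zpowers l with hT'
    have hlT : l ∈ T := Subgroup.mem_sup_right (Subgroup.mem_zpowers l)
    have haT : a ∈ T := Subgroup.mem_sup_left ha
    have hTne : T ≠ ⊤ := by
      intro htop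
      have hle : T ≤ Subgroup.normalizer (A : Set G) :=
        sup_le Subgroup.le_normalizer (Subgroup.zpowers_le.mpr hlN)
      rw [htop, top_le_iff] at hle
      haveI : IsSimpleGroup G := CfsgLib.Suzuki.isSimpleGroup hT
      rcases IsSimpleGroup.eq_bot_or_eq_top_of_normal A (Subgroup.normalizer_eq_top_iff.mp hle)
        with h1 | h1
      · exact hAbot h1
      · apply hA
        rw [h1, Subgroup.card_top]
        exact hrl.trans (orderOf_dvd_natCard l)
    rcases subgroup_cases hm hF T hTne with ⟨P, hP⟩ | ⟨g, hg1, hgu, hTN⟩ | ⟨y, K, hK2, hKF, hy⟩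
    · exfalso
      obtain ⟨q, hq⟩ := MulAction.exists_smul_eq G P (uSylow hT)
      have hlq : q * l * q⁻¹ ∈ stabInf (theta F m) := by
        rw [← normalizer_uGrp hT, ← uSylow_coe hT, ← hq]
        have h1 := hP hlT
        rw [Subgroup.mem_normalizer_iff] at h1 ⊢
        intro w
        have h2 := h1 (q⁻¹ * w * q)
        have e : ∀ z : G, z ∈ ((q • P : Sylow 2 G) : Subgroup G) ↔ q⁻¹ * z * q ∈ (P : Subgroup G) := by
          intro z
          rw [Sylow.coe_subgroup_smul,
            Subgroup.mem_pointwise_smul_iff_inv_smul_mem, ← map_inv, MulAut.smul_def,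
            MulAut.conj_apply, inv_inv]
        rw [e, e, h2]
        constructor <;> intro h <;> convert h using 1 <;> group
      have h2 := hrl.trans (Subgroup.orderOf_dvd_natCard _ hlq |> (orderOf_injective
        (MulAut.conj q).toMonoidHom (MulAut.conj q).injective l).symm.dvd.trans)
      rw [card_stabInf hT, Nat.card_eq_fintype_card, hF] at h2
      rcases hr.out.dvd_mul.mp h2 with h3 | h3
      · exact hr2' _ (by rwa [← pow_mul] at h3)
      · exact hrq h3
    · obtain ⟨hcyc, -, hidx⟩ := torus_cases hm hF hg1 hgu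
      set C := Subgroup.centralizer ({g} : Set G) with hC
      set N := Subgroup.normalizer (C : Set G) with hN
      have hCN : C ≤ N := Subgroup.le_normalizer
      haveI : (C.subgroupOf N).Normal := Subgroup.normal_in_normalizer
      have hmul : Nat.card C * (C.subgroupOf N).index = Nat.card N := by
        rw [← Nat.card_congr (Subgroup.subgroupOfEquivOfLe hCN).toEquiv]
        exact Subgroup.card_mul_index _
      have hpos : 0 < Nat.card C := Nat.card_pos
      have hi : ¬ r ∣ (C.subgroupOf N).index := by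
        rcases hidx with ⟨-, h2⟩ | ⟨-, h4⟩
        · intro hd
          have h3 : (C.subgroupOf N).index ≤ 2 := by
            rw [← hmul, mul_comm 2] at h2
            exact Nat.le_of_mul_le_mul_left h2 hpos
          have h5 := Nat.le_of_dvd (Nat.pos_of_ne_zero Subgroup.index_ne_zero_of_finite) hd
          have := hr.out.two_le
          exact hr2 (by omega)
        · rw [mul_comm 4] at h4
          rw [Nat.eq_of_mul_eq_mul_left hpos (hmul.trans h4)]
          exact hr2' 2
      have hlC : l ∈ C := by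
        have h1 : (⟨l, hTN hlT⟩ : N) ^ (C.subgroupOf N).index ∈ C.subgroupOf N :=
          Subgroup.pow_index_mem _ _
        obtain ⟨e, he⟩ := exists_pow_eq_self_of_coprime (x := l) (n := (C.subgroupOf N).index) (by
          obtain ⟨j, -, hj⟩ := (Nat.dvd_prime_pow hr.out).mp (orderOf_dvd_of_pow_eq_one hk)
          rw [hj]
          exact Nat.Coprime.pow_right _ (hr.out.coprime_iff_not_dvd.mpr hi).symm)
        rw [← he]
        exact pow_mem h1 e
      refine commute_of_commutator_fixed hA hk ha (hn a ha) ?_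
      have hcC : l * a * l⁻¹ * a⁻¹ ∈ C := by
        have h1 : a * l⁻¹ * a⁻¹ ∈ C :=
          (Subgroup.mem_normalizer_iff.mp (hTN haT) _).mp (inv_mem hlC)
        have e : l * a * l⁻¹ * a⁻¹ = l * (a * l⁻¹ * a⁻¹) := by group
        rw [e]
        exact mul_mem hlC h1
      haveI := hcyc
      letI := IsCyclic.commGroup (α := C)
      exact congrArg Subtype.val (mul_comm (⟨l, hlC⟩ : C) ⟨_, hcC⟩)
    · exfalso
      obtain ⟨K', i1, i2, i3, k', hk1, hKc, hK'c, hdiv, f, hf, hrange⟩ := exists_model hm hF K hK2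
      have hTmap := eq_map_conj (S := T) (T := f.range) (y := y) fun g => (hy g).trans (hrange g).symm
      have h2 : r ∣ Nat.card T := hrl.trans (Subgroup.orderOf_dvd_natCard _ hlT)
      rw [hTmap, Subgroup.card_map_of_injective (MulAut.conj y).injective,
        card_range_embedding hk1 hK'c hf] at h2
      set s := 2 ^ (2 * k' + 1) with hs
      have h4 : r ∣ 2 ^ (4 * (2 * k' + 1)) - 1 := by
        rw [mul_comm 4, pow_mul, ← hs]
        rcases hr.out.dvd_mul.mp h2 with h3 | h3
        · rcases hr.out.dvd_mul.mp h3 with h5 | h5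
          · exact absurd (hr.out.dvd_of_dvd_pow h5) (hr2' _)
          · exact h5.trans (q_sub_one_dvd s).1
        · exact h3.trans (q_sub_one_dvd s).2
      have h6 := Nat.le_of_dvd (by omega) ((hdvd _).mp h4)
      have h7 : 2 * k' + 1 < 2 * m + 1 := by
        rw [hKc, Nat.card_eq_fintype_card, hF] at hKF
        exact (Nat.pow_lt_pow_iff_right (by norm_num)).mp hKF
      omega
  · intro φ hφ
    have hall : ∀ (σ : F ≃+* F) (x : F), σ (theta F m x) = theta F m (σ x) := fun σ x => by
      rw [theta_apply, theta_apply, map_pow]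
    have hout : Nat.card (Cfsg.Out G) = 2 * m + 1 := by
      rw [CfsgLib.SuzukiAut.card_out_grp hT hall, CfsgLib.SuzukiAut.card_ringAut (p := 2) hF]
    have h1 : (QuotientGroup.mk φ : Cfsg.Out G) = 1 := by
      refine orderOf_eq_one_iff.1 (Nat.eq_one_of_dvd_coprimes
        (hr.out.coprime_iff_not_dvd.mpr hrn)
        (orderOf_dvd_of_pow_eq_one ?_) (hout ▸ orderOf_dvd_natCard _))
      rw [← QuotientGroup.mk_pow, hφ, QuotientGroup.mk_one]
    obtain ⟨u, rfl⟩ := (QuotientGroup.eq_one_iff φ).1 h1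
    exact ⟨u, rfl⟩
  · exact CfsgLib.Suzuki.two_generated hT

/-- The facts in a group given as a Suzuki group. -/
theorem isoSuzuki_simpleFacts {Q : Type u} [Group Q] {F : Type} [Field F] [Fintype F] {m r : ℕ}
    [Fact r.Prime] (hm : 1 ≤ m) (hF : Fintype.card F = 2 ^ (2 * m + 1))
    (e : Q ≃* Cfsg.Lie.Sz F (2 ^ (m + 1))) (hord : orderOf ((2 : ℕ) : ZMod r) = 4 * (2 * m + 1)) :
    SimpleFacts r Q := by
  haveI := charP_two hF
  exact (sz_suzuki_simpleFacts hm hF hord).map
    (e.trans ((lieSzEquiv hm hF).symm.trans (MulEquiv.subgroupCongr sz_eq))).symm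

theorem isoSuzuki_card {Q : Type u} [Group Q] {F : Type} [Field F] [Fintype F] {m : ℕ} (hm : 1 ≤ m)
    (hF : Fintype.card F = 2 ^ (2 * m + 1)) (e : Q ≃* Cfsg.Lie.Sz F (2 ^ (m + 1))) :
    Nat.card Q = (2 ^ (2 * m + 1)) ^ 2 * ((2 ^ (2 * m + 1)) ^ 2 + 1) * (2 ^ (2 * m + 1) - 1) := by
  haveI := charP_two hF
  rw [Nat.card_congr (e.trans ((lieSzEquiv hm hF).symm.trans (MulEquiv.subgroupCongr sz_eq))).toEquiv,
    card_grp (titsEndo_theta hm hF), Nat.card_eq_fintype_card, hF]

end CfsgLib.Powell
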